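import Cfsg.Agent.H518.DPi.RedA
import Cfsg.Agent.H459.Reduce
import Cfsg.Agent.S3743
import Cfsg.Agent.H469.PiBS.Def

/-!
# Reduction of the Baer–Suzuki theorem for `D_π`-groups to simple groups (helper518, S3876)

`main` : if `H469.PiBS.Row π S` holds for every non-abelian finite simple group `S` then the `π`-analogue of the
Baer–Suzuki theorem holds in every finite `D_π`-group.
-/

set_option autoImplicit false

namespace Cfsg.Agent.H518.DPi.Red

open Cfsg Subgroup Cfsg.Agent.H470.SolvPi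
open Cfsg.Agent.SignalizersComponents.ComponentExists Cfsg.Agent.H459.Rad Cfsg.Agent.H459.Reduce
open Cfsg.Agent.SignalizersComponents.Components

universe u

variable {π : Set ℕ} {G : Type u} [Group G] [Finite G]

theorem piCore_pi (π : Set ℕ) (G : Type u) [Group G] [Finite G] : IsPiSubgroup π (piCore π G) := by
  have hfin : {N : Subgroup G | N.Normal ∧ ∀ p : ℕ, p.Prime → p ∣ Nat.card N → p ∈ π}.Finite := Set.toFinite _
  obtain ⟨M, ⟨hMn, hMp⟩, hMmax⟩ := hfin.exists_maximal ⟨⊥, inferInstance, H164.bot_pi⟩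
  have h1 : piCore π G = M := by
    apply le_antisymm
    · refine sSup_le fun N hN => ?_
      have hN1 := hN.1
      have h2 : (N ⊔ M).Normal := inferInstance
      have h3 : IsPiSubgroup π (N ⊔ M) := by
        intro p hp hd
        have h4 : Nat.card ↥(N ⊔ M) ∣ Nat.card N * Nat.card M :=
          SignalizersComponents.CoprimeBasic.card_sup_dvd (by
            rw [Subgroup.normalizer_eq_top_iff.2 hN1]; exact le_top)
        rcases hp.dvd_mul.1 (hd.trans h4) with h5 | h5
        · exact hN.2 p hp h5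
        · exact hMp p hp h5
      exact le_sup_left.trans (hMmax ⟨h2, h3⟩ le_sup_right)
    · exact le_sSup ⟨hMn, hMp⟩
  rw [h1]
  exact hMp

/-- the join of a commuting family of `π`-subgroups -/
theorem pi_iSup {ι : Type*} [Finite ι] (X : ι → Subgroup G) (hX : ∀ i, IsPiSubgroup π (X i))
    (hc : ∀ i j, i ≠ j → ∀ a ∈ X i, ∀ b ∈ X j, a * b = b * a) : IsPiSubgroup π (⨆ i, X i) := by
  classical
  have := Fintype.ofFinite ι
  have key : ∀ s : Finset ι, IsPiSubgroup π (⨆ i ∈ s, X i) := by
    intro s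
    induction s using Finset.induction_on with
    | empty =>
      simp only [Finset.notMem_empty, iSup_false, iSup_bot]
      exact H164.bot_pi
    | insert i s hi ih =>
      rw [Finset.iSup_insert]
      intro p hp hd
      have hn : (⨆ j ∈ s, X j) ≤ normalizer (X i : Set G) := by
        refine le_trans ?_ (Subgroup.centralizer_le_normalizer _)
        refine iSup₂_le fun j hj => ?_
        intro b hb
        rw [mem_centralizer_iff]
        intro a ha
        exact hc i j (fun h => hi (h ▸ hj)) a ha b hb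
      have h4 : Nat.card ↥(X i ⊔ ⨆ j ∈ s, X j) ∣ Nat.card (X i) * Nat.card ↥(⨆ j ∈ s, X j) :=
        SignalizersComponents.CoprimeBasic.card_sup_dvd hn
      rcases hp.dvd_mul.1 (hd.trans h4) with h5 | h5
      · exact hX i p hp h5
      · exact ih p hp h5
  have h1 := key Finset.univ
  simpa using h1

/-- the Hall subgroup cut out in a conjugate of a component -/
theorem inf_cj_eq {H : Subgroup G} (hH : IsPiHall π H) {L : Subgroup G} (hL : L.IsSubnormal) {K : Subgroup G}
    (hKL : K ≤ L) (hK : IsPiHall π (K.subgroupOf L)) (hKH : K ≤ H) : H ⊓ L = K := by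
  have h1 := hall_of_subnormal hH hL
  have h2 : K.subgroupOf L ≤ H.subgroupOf L := fun x hx => hKH hx
  have h3 := H164.hall_eq_of_le hK h1.1 h2
  apply le_antisymm
  · rintro x ⟨hx1, hx2⟩
    have h4 : (⟨x, hx2⟩ : L) ∈ K.subgroupOf L := by rw [h3]; exact hx1
    exact h4
  · exact le_inf hKH hKL

theorem cj_mul (a b : G) (L : Subgroup G) : cj (a * b) L = cj a (cj b L) := by
  ext x
  rw [mem_cj, mem_cj, mem_cj, mul_inv_rev]
  simp only [mul_assoc]

theorem cj_mono {L M : Subgroup G} (h : L ≤ M) (g : G) : cj g L ≤ cj g M := Subgroup.map_mono h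

/-- Hall subgroups of conjugates -/
theorem hall_cj {K L : Subgroup G} (hKL : K ≤ L) (hK : IsPiHall π (K.subgroupOf L)) (g : G) :
    IsPiHall π ((cj g K).subgroupOf (cj g L)) := by
  have h1 : Nat.card ((cj g K).subgroupOf (cj g L)) = Nat.card (K.subgroupOf L) := by
    rw [Nat.card_congr (subgroupOfEquivOfLe (cj_mono hKL g)).toEquiv, Nat.card_congr (subgroupOfEquivOfLe hKL).toEquiv]
    exact H164.card_map_conj K g
  have h2 : ((cj g K).subgroupOf (cj g L)).index = (K.subgroupOf L).index := by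
    have h3 := ((cj g K).subgroupOf (cj g L)).card_mul_index
    have h4 := (K.subgroupOf L).card_mul_index
    have h5 : Nat.card (cj g L) = Nat.card L := H164.card_map_conj L g
    rw [h5, ← h4, h1] at h3
    exact Nat.eq_of_mul_eq_mul_left Nat.card_pos h3
  exact ⟨fun p hp hd => hK.1 p hp (by rwa [← h1]), fun p hp hpπ hd => hK.2 p hp hpπ (by rwa [← h2])⟩

/-- **A Hall subgroup of `G` cutting out given Hall subgroups of the conjugates of a component.** -/
theorem exists_hall_family (hR : solvableRadical G = ⊥) (hD : IsDPiGroup π G) {L : Subgroup G} (hL : IsComponent L)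
    {K : Subgroup G} (hKL : K ≤ L) (hK : IsPiHall π (K.subgroupOf L)) (s : G ⧸ normalizer (L : Set G) → G)
    (hs : ∀ c, (QuotientGroup.mk (s c) : G ⧸ normalizer (L : Set G)) = c) :
    ∃ H : Subgroup G, IsPiHall π H ∧ ∀ c, H ⊓ cj (s c) L = cj (s c) K := by
  obtain ⟨H₀, hH₀⟩ := H164.isEPi_of_isDPi hD
  have hKpi : IsPiSubgroup π K := by
    intro p hp hd
    exact hK.1 p hp (by rwa [Nat.card_congr (subgroupOfEquivOfLe hKL).toEquiv])
  have h1 : IsPiSubgroup π (⨆ c, cj (s c) K) := by
    refine pi_iSup _ (fun c => ?_) fun c d hcd a ha b hb => ?_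
    · exact H164.pi_map_conj hKpi _
    · have hne : cj (s c) L ≠ cj (s d) L := by
        intro h
        apply hcd
        rw [← hs c, ← hs d]
        refine (QuotientGroup.eq).2 (mem_normalizer_of_cj ?_)
        have h2 : cj (s c)⁻¹ (cj (s c) L) = cj (s c)⁻¹ (cj (s d) L) := by rw [h]
        rw [← cj_mul, ← cj_mul, inv_mul_cancel] at h2
        rw [← h2]
        ext x
        rw [mem_cj]
        simp
      have h3 := component_le_centralizer_of_ne (isComponent_conj (s c) hL) (isComponent_conj (s d) hL) hne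
        (cj_mono hKL _ ha)
      exact (mem_centralizer_iff.1 h3 b (cj_mono hKL _ hb)).symm
  obtain ⟨g, hg⟩ := H164.isDPi_iff_le hD hH₀ h1
  refine ⟨_, H164.hall_map_conj hH₀ g, fun c => ?_⟩
  exact inf_cj_eq (H164.hall_map_conj hH₀ g) (isComponent_conj (s c) hL).1 (cj_mono hKL _) (hall_cj hKL hK _)
    ((le_iSup (fun c => cj (s c) K) c).trans hg)

/-- **The automorphism group of a component satisfies `DA`.** -/
theorem da_of_component (hR : solvableRadical G = ⊥) (hD : IsDPiGroup π G) {L : Subgroup G} (hL : IsComponent L) :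
    DA π (L.normalizerMonoidHom).range := by
  set N := normalizer (L : Set G) with hN
  set ρ : N →* MulAut L := L.normalizerMonoidHom with hρ
  have hLN : L ≤ N := le_normalizer
  have hρL : ∀ l : L, ρ ⟨l, hLN l.2⟩ = MulAut.conj l := by
    intro l
    ext y
    rfl
  have hρv : ∀ (n : N) (l : L), ((ρ n l : L) : G) = n * l * (n : G)⁻¹ := fun n l => rfl
  obtain ⟨H₀, hH₀⟩ := H164.isEPi_of_isDPi hD
  refine ⟨fun l => ⟨⟨l, hLN l.2⟩, hρL l⟩, ?_, ?_⟩
  · intro K hK hKpi
    obtain ⟨P, hP, hPK⟩ := exists_map_eq ρ hK hKpi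
    have hP' : IsPiSubgroup π (P.map N.subtype) := by
      intro p hp hd
      rw [Subgroup.card_map_of_injective N.subtype_injective] at hd
      exact hP p hp hd
    obtain ⟨g, hg⟩ := H164.isDPi_iff_le hD hH₀ hP'
    set H := H₀.map (MulAut.conj g).toMonoidHom with hH
    refine ⟨H.subgroupOf L, hall_of_subnormal (H164.hall_map_conj hH₀ g) hL.1, ?_⟩
    intro k hk
    rw [← hPK] at hk
    obtain ⟨n, hn, rfl⟩ := hk
    have hnH : (n : G) ∈ H := hg ⟨n, hn, rfl⟩
    apply le_antisymm
    · rintro _ ⟨l, hl, rfl⟩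
      show ((ρ n l : L) : G) ∈ H
      rw [hρv]
      exact mul_mem (mul_mem hnH hl) (inv_mem hnH)
    · intro l hl
      refine ⟨(ρ n).symm l, ?_, (ρ n).apply_symm_apply l⟩
      have e : (ρ n).symm l = ρ n⁻¹ l := by rw [map_inv]; rfl
      show (((ρ n).symm l : L) : G) ∈ H
      rw [e, hρv]
      exact mul_mem (mul_mem (inv_mem hnH) hl) (inv_mem (inv_mem hnH))
  · intro K K' hK hK'
    obtain ⟨s, hs⟩ := (QuotientGroup.mk_surjective (s := N)).hasRightInverse
    -- lift to subgroups of `G`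
    set K₁ := K.map L.subtype with hK₁
    set K₁' := K'.map L.subtype with hK₁'
    have hle : ∀ M : Subgroup L, M.map L.subtype ≤ L := fun M => map_subtype_le M
    have hso : ∀ M : Subgroup L, (M.map L.subtype).subgroupOf L = M := fun M =>
      Subgroup.comap_map_eq_self_of_injective L.subtype_injective M
    obtain ⟨H, hH, hHc⟩ := exists_hall_family hR hD hL (hle K) (by rw [hso]; exact hK) s hs
    obtain ⟨H', hH', hHc'⟩ := exists_hall_family hR hD hL (hle K') (by rw [hso]; exact hK') s hs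
    obtain ⟨g, hg⟩ := hD H H' (H164.hall_maximal hH) (H164.hall_maximal hH')
    -- the coset of `L` itself
    set c₁ : G ⧸ N := QuotientGroup.mk 1 with hc₁
    have hm1 : s c₁ ∈ N := by
      have h1 := hs c₁
      rw [hc₁] at h1
      have h2 := QuotientGroup.eq.1 h1
      rw [mul_one] at h2
      exact (inv_mem_iff).1 h2
    set c : G ⧸ N := QuotientGroup.mk (g⁻¹ * s c₁) with hc
    have hm2 : (s c)⁻¹ * (g⁻¹ * s c₁) ∈ N := QuotientGroup.eq.1 (hs c)
    have hcjN : ∀ n ∈ N, cj n L = L := fun n hn => (Subgroup.mem_normalizer_iff_map_conj_eq.1 hn)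
    have h1 := hHc' c₁
    have h2 := hHc c
    -- `cj (g⁻¹ s₁) L = cj (s c) L`
    have h3 : cj (g⁻¹ * s c₁) L = cj (s c) L := by
      have e : g⁻¹ * s c₁ = s c * ((s c)⁻¹ * (g⁻¹ * s c₁)) := by group
      rw [e, cj_mul, hcjN _ hm2]
    have h4 : cj g (H ⊓ cj (s c) L) = H' ⊓ cj (s c₁) L := by
      rw [← h3, cj_mul]
      ext x
      rw [mem_cj, Subgroup.mem_inf, Subgroup.mem_inf, hg]
      refine and_congr ?_ ?_
      · exact (mem_cj (g := g) (x := x) (L := H)).symm
      · rw [mem_cj]
        have e : g⁻¹⁻¹ * (g⁻¹ * x * g) * g⁻¹ = x := by group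
        rw [e]
    rw [h2, h1] at h4
    -- `K₁' = cj n K₁`
    set n : G := (s c₁)⁻¹ * (g * s c) with hn
    have hnN : n ∈ N := by
      have e : n = ((s c)⁻¹ * (g⁻¹ * s c₁))⁻¹ := by rw [hn]; group
      rw [e]
      exact inv_mem hm2
    have h5 : K₁' = cj n K₁ := by
      have h6 : cj (s c₁)⁻¹ (cj g (cj (s c) K₁)) = cj (s c₁)⁻¹ (cj (s c₁) K₁') := by rw [h4]
      rw [← cj_mul, ← cj_mul, ← cj_mul, inv_mul_cancel] at h6
      have h7 : cj 1 K₁' = K₁' := by
        ext x
        rw [mem_cj]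
        simp
      rw [h7] at h6
      have e7 : n = (s c₁)⁻¹ * g * s c := by rw [hn]; group
      rw [e7]
      exact h6.symm
    refine ⟨ρ ⟨n, hnN⟩, ⟨_, rfl⟩, ?_⟩
    ext l
    constructor
    · intro hl
      have h8 : (l : G) ∈ K₁' := ⟨l, hl, rfl⟩
      rw [h5] at h8
      obtain ⟨_, ⟨k, hk, rfl⟩, e⟩ := h8
      exact ⟨k, hk, Subtype.ext e⟩
    · rintro ⟨k, hk, rfl⟩
      have h8 : ((ρ ⟨n, hnN⟩ k : L) : G) ∈ K₁' := by
        rw [h5]
        exact ⟨k, ⟨k, hk, rfl⟩, rfl⟩
      obtain ⟨k', hk', e⟩ := h8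
      have e' : k' = ρ ⟨n, hnN⟩ k := Subtype.ext e
      exact e' ▸ hk'

/-- the hypotheses of a row -/
theorem hyp_of_da {S : Type u} [Group S] [Finite S] {A : Subgroup (MulAut S)} (h : DA π A) {x : MulAut S}
    (hx : x ∈ A) (ho : (orderOf x).Prime)
    (hp : ∀ a ∈ A, ∀ b ∈ A, IsPiSubgroup π (closure ({a * x * a⁻¹, b * x * b⁻¹} : Set (MulAut S)))) :
    H469.PiBS.Hyp π A x (orderOf x) where
  inn := h.inn
  dom _ hK := h.le_hall hK
  trans H H' hH hH' := by
    obtain ⟨a, ha, e⟩ := h.tr H H' hH hH'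
    exact ⟨a, ha, e.symm⟩
  cnt := by
    intro r hr hrp hd
    have hfin : Finite (MulAut S) := DFunLike.finite _
    have hrf : Fact r.Prime := ⟨hr⟩
    obtain ⟨R⟩ : Nonempty (Sylow r A) := inferInstance
    have hR : IsPiSubgroup π ((R : Subgroup A).map A.subtype) := by
      intro p hp hd
      rw [Subgroup.card_map_of_injective A.subtype_injective] at hd
      obtain ⟨n, hn⟩ := IsPGroup.iff_card.1 R.isPGroup'
      rw [hn] at hd
      exact (Nat.prime_dvd_prime_iff_eq hp hr).1 (hp.dvd_of_dvd_pow hd) ▸ hrp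
    obtain ⟨H, hH, hHR⟩ := h.dom _ (map_subtype_le _) hR
    letI : MulAction (MulAut S) {H : Subgroup S // IsPiHall π H} := H469.PiBS.hallAct π S
    have htr : MulAction.IsPretransitive A {H : Subgroup S // IsPiHall π H} := by
      refine ⟨fun H₁ H₂ => ?_⟩
      obtain ⟨a, ha, e⟩ := h.tr H₁.1 H₂.1 H₁.2 H₂.2
      exact ⟨⟨a, ha⟩, Subtype.ext e.symm⟩
    have h1 := MulAction.index_stabilizer_of_transitive A (⟨H, hH⟩ : {H : Subgroup S // IsPiHall π H})
    have h2 : (R : Subgroup A) ≤ MulAction.stabilizer A (⟨H, hH⟩ : {H : Subgroup S // IsPiHall π H}) := by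
      intro k hk
      rw [MulAction.mem_stabilizer_iff]
      exact Subtype.ext (hHR k ⟨k, hk, rfl⟩)
    rw [← h1] at hd
    exact R.not_dvd_index (hd.trans (Subgroup.index_dvd_of_le h2))
  mem := hx
  prime := ho
  lpi := by
    have hfin : Finite (MulAut S) := DFunLike.finite _
    refine PiEl.of_mem (hp 1 (one_mem A) 1 (one_mem A)) (g := x) ?_ _ ho dvd_rfl
    exact subset_closure (by simp)
  ord := rfl
  pairs := hp

/-- the case of a trivial solvable radical -/
theorem no_prime_order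
    {hrow : ∀ (S : Type u) [Group S] [Finite S] [IsSimpleGroup S], ¬ IsMulCommutative S → H469.PiBS.Row π S}
    (hR : solvableRadical G = ⊥) (hC : piCore π G = ⊥) (hD : IsDPiGroup π G) {x : G} (hx : (orderOf x).Prime)
    (h : Pairs π x) : False := by
  have hx1 : x ≠ 1 := by
    rintro rfl
    rw [orderOf_one] at hx
    exact hx.one_lt.ne rfl
  obtain ⟨L, hL, l0, hl0, hne0⟩ := exists_component hR hx1
  have hsimp := component_simple hR hL
  have hna := quasisimple_not_isMulCommutative hL.2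
  -- `L` is not a `π`-group
  obtain ⟨t, ht, htL, htπ⟩ : ∃ t : ℕ, t.Prime ∧ t ∣ Nat.card L ∧ t ∉ π := by
    by_contra hcon
    push Not at hcon
    have h1 := (S3743.result L hL.1).2 π hcon
    rw [hC, le_bot_iff] at h1
    rw [h1, mem_bot] at hl0
    exact hne0 (by rw [hl0, mul_one, one_mul])
  have htf : Fact t.Prime := ⟨ht⟩
  set N := normalizer (L : Set G) with hN
  have hLN : L ≤ N := le_normalizer
  -- `x` normalises `L`
  have hm : x ∈ N := by
    by_contra hm
    obtain ⟨s, hs⟩ := exists_prime_orderOf_dvd_card' (G := L) t htL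
    have hcj : cj x L ≠ L := fun h => hm (mem_normalizer_of_cj h)
    set w : G := (s : G) * x * (s : G)⁻¹ * x⁻¹ with hw
    have hw1 : w = s * (x * (s : G)⁻¹ * x⁻¹) := by rw [hw]; group
    have hcom : Commute (s : G) (x * (s : G)⁻¹ * x⁻¹) :=
      (comm_of_cj_ne hL hcj (conj_mem_cj (inv_mem s.2)) s.2).symm
    have hst : (s : G) ^ t = 1 := by
      have := pow_orderOf_eq_one s
      rw [hs] at this
      exact congrArg Subtype.val this
    have hwt : w ^ t ^ 1 = 1 := by
      rw [pow_one, hw1, hcom.mul_pow, conj_pow, inv_pow, hst]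
      group
    have hwpi : PiEl π w := by
      refine PiEl.of_mem (h s 1) ?_
      rw [hw]
      refine mul_mem (subset_closure (by simp)) (inv_mem ?_)
      exact subset_closure (by simp)
    have hw0 := hwpi.eq_one_of_pow ht htπ hwt
    have h1 : (s : G) = x * s * x⁻¹ := by
      have h2 : (s : G) * (x * (s : G)⁻¹ * x⁻¹) = 1 := by rw [← hw1, hw0]
      have h3 := mul_eq_one_iff_eq_inv.1 h2
      calc (s : G) = (x * (s : G)⁻¹ * x⁻¹)⁻¹ := h3
        _ = x * s * x⁻¹ := by group
    have h2 : s ∈ center L := by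
      rw [mem_center_iff]
      intro l
      apply Subtype.ext
      have h3 := comm_of_cj_ne hL hcj (y := (s : G)) (by rw [h1]; exact conj_mem_cj s.2) l.2
      exact h3.symm
    rw [component_center hR hL, mem_bot] at h2
    rw [h2, orderOf_one] at hs
    exact ht.one_lt.ne hs
  set ρ : N →* MulAut L := L.normalizerMonoidHom with hρ
  have hρL : ∀ l : L, ρ ⟨l, hLN l.2⟩ = MulAut.conj l := by
    intro l
    ext y
    rfl
  set y : MulAut L := ρ ⟨x, hm⟩ with hy
  have hyl : ∀ l : L, ((y l : L) : G) = x * l * x⁻¹ := fun l => rfl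
  have hyo : (orderOf y).Prime := by
    have h1 : orderOf y ∣ orderOf x := by
      have h2 : orderOf y ∣ orderOf (⟨x, hm⟩ : N) := orderOf_map_dvd ρ _
      rwa [Subgroup.orderOf_mk] at h2
    rcases (Nat.dvd_prime hx).1 h1 with h2 | h2
    · exfalso
      rw [orderOf_eq_one_iff] at h2
      apply hne0
      have h3 : ((y ⟨l0, hl0⟩ : L) : G) = l0 := by rw [h2]; rfl
      rw [hyl] at h3
      calc x * l0 = (x * l0 * x⁻¹) * x := by group
        _ = l0 * x := by rw [h3]
    · rwa [h2]
  refine htπ (hrow L hna _ y _ (hyp_of_da (da_of_component hR hD hL) ⟨_, rfl⟩ hyo ?_) t ht htL)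
  rintro _ ⟨m, rfl⟩ _ ⟨n, rfl⟩ p hp hd
  set S : Subgroup G := closure ({(m : G) * x * (m : G)⁻¹, (n : G) * x * (n : G)⁻¹} : Set G) with hS
  have h2 : Nat.card ↥((S.subgroupOf N).map ρ) ∣ Nat.card S :=
    (Subgroup.card_map_dvd _ ρ).trans (by
      rw [← inf_subgroupOf_right, Nat.card_congr (subgroupOfEquivOfLe inf_le_right).toEquiv]
      exact Subgroup.card_dvd_of_le inf_le_left)
  refine h m n p hp ((hd.trans (Subgroup.card_dvd_of_le ?_)).trans h2)
  rw [closure_le]
  have key : ∀ k : N, (k : G) * x * (k : G)⁻¹ ∈ S → ρ k * y * (ρ k)⁻¹ ∈ (S.subgroupOf N).map ρ := by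
    intro k hk
    refine ⟨k * ⟨x, hm⟩ * k⁻¹, hk, ?_⟩
    rw [map_mul, map_mul, map_inv]
  rintro _ (rfl | rfl)
  · exact key m (subset_closure (by simp))
  · exact key n (subset_closure (by simp))

/-- **The reduction.** -/
theorem main
    (hrow : ∀ (S : Type u) [Group S] [Finite S] [IsSimpleGroup S], ¬ IsMulCommutative S → H469.PiBS.Row π S)
    (G : Type u) [Group G] [Finite G] (hD : IsDPiGroup π G) (x : G) (h : Pairs π x) :
    IsPiSubgroup π (normalClosure ({x} : Set G)) := by
  induction hn : Nat.card G using Nat.strong_induction_on generalizing G with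
  | _ n ih =>
  subst hn
  set N := normalClosure ({x} : Set G) with hN
  have hNn : N.Normal := normalClosure_normal
  -- quotients
  have hquo : ∀ V : Subgroup G, ∀ _ : V.Normal, V ≠ ⊥ → IsPiSubgroup π (N.map (QuotientGroup.mk' V)) := by
    intro V hV hV1
    have hcard : Nat.card (G ⧸ V) < Nat.card G := by
      have h3 := Subgroup.card_eq_card_quotient_mul_card_subgroup V
      have h4 : 1 < Nat.card V := (Subgroup.one_lt_card_iff_ne_bot V).mpr hV1
      have h5 : 0 < Nat.card (G ⧸ V) := Nat.card_pos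
      nlinarith
    have hf := QuotientGroup.mk'_surjective V
    have hNC : normalClosure ({QuotientGroup.mk' V x} : Set (G ⧸ V)) = N.map (QuotientGroup.mk' V) := by
      rw [hN, Subgroup.map_normalClosure _ _ hf, Set.image_singleton]
    rw [← hNC]
    exact ih _ hcard (G ⧸ V) (dpi_quotient hD V) _ (h.map hf) rfl
  by_cases hR : solvableRadical G = ⊥
  swap
  · obtain ⟨p, V, hp, hVn, hV1, -, hVp⟩ := exists_normal_pgroup (rad_normal G) hR (rad_solvable G)
    have hpf : Fact p.Prime := ⟨hp⟩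
    by_cases hVN : V ⊓ N = ⊥
    · exact pi_of_map (V := V) (by rw [hVN]; exact H164.bot_pi) (hquo V hVn hV1)
    · have h1 : (V ⊓ N).Normal := inferInstance
      exact of_pgroup_le (V := V ⊓ N) h (hVp.to_le inf_le_left) inf_le_right (hquo _ h1 hVN)
  by_cases hC : piCore π G = ⊥
  swap
  · refine pi_of_map (V := piCore π G) (fun p hp hd => ?_) (hquo _ inferInstance hC)
    exact piCore_pi π G p hp (hd.trans (Subgroup.card_dvd_of_le inf_le_left))
  -- now `x = 1`
  by_cases hx1 : x = 1
  · have h1 : N = ⊥ := by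
      rw [hN, hx1, eq_bot_iff]
      refine normalClosure_le_normal ?_
      simp
    rw [h1]
    exact H164.bot_pi
  exfalso
  have ho : orderOf x ≠ 1 := fun h0 => hx1 (orderOf_eq_one_iff.1 h0)
  obtain ⟨r, hr, hrd⟩ := Nat.exists_prime_and_dvd ho
  obtain ⟨k, hk⟩ := hrd
  have hk0 : k ≠ 0 := by
    rintro rfl
    rw [mul_zero] at hk
    exact (orderOf_pos x).ne' hk
  have h1 : orderOf (x ^ k) = r := by
    rw [orderOf_pow_of_dvd hk0 ⟨r, by rw [hk, mul_comm]⟩, hk, Nat.mul_div_cancel _ (Nat.pos_of_ne_zero hk0)]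
  exact no_prime_order (hrow := hrow) hR hC hD (x := x ^ k) (by rw [h1]; exact hr) (h.pow k)

end Cfsg.Agent.H518.DPi.Red
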