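import Cfsg.Agent.H518.DPi.Defs
import Cfsg.Agent.H569.PiHall
import Cfsg.Agent.H470.SolvPi
import Cfsg.Agent.S4309

/-!
# `D_π`-groups: lifting of `π`-subgroups, quotients, normal `p`-subgroups (helper518, S3876)

* `exists_lift` : a `π`-group which is the image of a finite group `X` is the image of a `π`-subgroup of `X`;
* `dpi_quotient` : quotients of `D_π`-groups are `D_π`-groups;
* `of_pgroup` : the Baer–Suzuki conclusion modulo a normal `p`-subgroup implies the conclusion;
* `hall_of_subnormal` : the intersection of a Hall `π`-subgroup with a subnormal subgroup.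
-/

set_option autoImplicit false

namespace Cfsg.Agent.H518.DPi.Red

open Cfsg Subgroup Cfsg.Agent.H470.SolvPi

universe u v

variable {π : Set ℕ}

theorem lift_aux {Y : Type v} [Group Y] (hY : ∀ p : ℕ, p.Prime → p ∣ Nat.card Y → p ∈ π) :
    ∀ (n : ℕ) (X : Type u) [Group X] [Finite X] (f : X →* Y), Nat.card X = n → Function.Surjective f →
      ∃ P : Subgroup X, IsPiSubgroup π P ∧ P.map f = ⊤ := by
  intro n
  induction n using Nat.strong_induction_on with
  | _ n ih =>
  intro X _ _ f hn hf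
  -- a proper subgroup mapping onto `Y`
  have key : ∀ K : Subgroup X, K ≠ ⊤ → K.map f = ⊤ → ∃ P : Subgroup X, IsPiSubgroup π P ∧ P.map f = ⊤ := by
    intro K hK hKf
    have hc : Nat.card K < n := by
      rw [← hn]
      exact lt_of_le_of_ne (Subgroup.card_le_card_group K) fun h => hK (Subgroup.eq_top_of_card_eq K h)
    have hs : Function.Surjective (f.comp K.subtype) := by
      intro y
      have h1 : y ∈ K.map f := by rw [hKf]; exact mem_top _
      obtain ⟨k, hk, hky⟩ := h1
      exact ⟨⟨k, hk⟩, hky⟩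
    obtain ⟨P, hP, hPf⟩ := ih _ hc K (f.comp K.subtype) rfl hs
    refine ⟨P.map K.subtype, ?_, ?_⟩
    · intro p hp hd
      rw [Subgroup.card_map_of_injective K.subtype_injective] at hd
      exact hP p hp hd
    · rw [Subgroup.map_map]
      exact hPf
  by_cases hX : ∀ p : ℕ, p.Prime → p ∣ Nat.card X → p ∈ π
  · refine ⟨⊤, ?_, ?_⟩
    · intro p hp hd
      rw [Subgroup.card_top] at hd
      exact hX p hp hd
    · rw [← MonoidHom.range_eq_map, MonoidHom.range_eq_top.2 hf]
  push Not at hX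
  obtain ⟨q, hq, hqd, hqπ⟩ := hX
  have hqf : Fact q.Prime := ⟨hq⟩
  have hYf : Finite Y := Finite.of_surjective f hf
  set L := f.ker with hL
  have hidx : L.index = Nat.card Y := by
    rw [hL, Subgroup.index_ker, MonoidHom.range_eq_top.2 hf, Subgroup.card_top]
  have hqY : ¬ q ∣ L.index := by
    rw [hidx]
    exact fun h => hqπ (hY q hq h)
  obtain ⟨Q⟩ : Nonempty (Sylow q L) := inferInstance
  set Q' : Subgroup X := (Q : Subgroup L).map L.subtype with hQ'
  have hfr : normalizer (Q' : Set X) ⊔ L = ⊤ := Sylow.normalizer_sup_eq_top Q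
  have hLf : ∀ K : Subgroup X, K ⊔ L = ⊤ → K.map f = ⊤ := by
    intro K hK
    rw [eq_top_iff]
    intro y _
    obtain ⟨x, rfl⟩ := hf y
    have h1 : x ∈ K ⊔ L := by rw [hK]; exact mem_top _
    obtain ⟨k, hk, l, hl, rfl⟩ := Subgroup.mem_sup_of_normal_right.1 h1
    refine ⟨k, hk, ?_⟩
    rw [map_mul, (MonoidHom.mem_ker).1 hl, mul_one]
  by_cases hN : normalizer (Q' : Set X) = ⊤
  swap
  · exact key _ hN (hLf _ hfr)
  have hQn : Q'.Normal := Subgroup.normalizer_eq_top_iff.1 hN
  have hQidx : ¬ q ∣ Q'.index := by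
    have h1 : Q'.index = (Q : Subgroup L).index * L.index := Subgroup.index_map_subtype (Q : Subgroup L)
    rw [h1]
    intro h
    rcases hq.dvd_mul.1 h with h2 | h2
    · exact Q.not_dvd_index h2
    · exact hqY h2
  have hQp : IsPGroup q Q' := Q.2.map _
  have hcop : Nat.Coprime (Nat.card Q') Q'.index := by
    obtain ⟨k, hk⟩ := IsPGroup.iff_card.1 hQp
    rw [hk]
    exact Nat.Coprime.pow_left k ((Nat.Prime.coprime_iff_not_dvd hq).2 hQidx)
  obtain ⟨H, hH⟩ := Subgroup.exists_right_complement'_of_coprime hcop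
  have hQL : Q' ≤ L := map_subtype_le _
  refine key H ?_ (hLf H ?_)
  · intro hHt
    rw [hHt] at hH
    have h1 : Q' = ⊥ := Subgroup.isComplement'_top_right.1 hH
    rw [h1, Subgroup.index_bot] at hQidx
    exact hQidx hqd
  · rw [eq_top_iff, ← hH.sup_eq_top, sup_comm]
    exact sup_le_sup_left hQL H

/-- **`π`-subgroups lift.** -/
theorem exists_lift {X : Type u} {Y : Type v} [Group X] [Finite X] [Group Y] (f : X →* Y) (hf : Function.Surjective f)
    (hY : ∀ p : ℕ, p.Prime → p ∣ Nat.card Y → p ∈ π) : ∃ P : Subgroup X, IsPiSubgroup π P ∧ P.map f = ⊤ :=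
  lift_aux hY _ X f rfl hf

/-- a `π`-subgroup of the image is the image of a `π`-subgroup -/
theorem exists_map_eq {X : Type u} {Y : Type v} [Group X] [Finite X] [Group Y] (f : X →* Y) {K : Subgroup Y}
    (hKr : K ≤ f.range) (hK : IsPiSubgroup π K) : ∃ P : Subgroup X, IsPiSubgroup π P ∧ P.map f = K := by
  have hs : Function.Surjective (f.subgroupComap K) := by
    rintro ⟨y, hy⟩
    obtain ⟨x, rfl⟩ := hKr hy
    exact ⟨⟨x, hy⟩, rfl⟩
  obtain ⟨P, hP, hPf⟩ := exists_lift (f.subgroupComap K) hs hK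
  refine ⟨P.map (K.comap f).subtype, ?_, ?_⟩
  · intro p hp hd
    rw [Subgroup.card_map_of_injective (K.comap f).subtype_injective] at hd
    exact hP p hp hd
  · ext y
    constructor
    · rintro ⟨_, ⟨x, hx, rfl⟩, rfl⟩
      exact x.2
    · intro hy
      have h1 : (⟨y, hy⟩ : K) ∈ P.map (f.subgroupComap K) := by rw [hPf]; exact mem_top _
      obtain ⟨x, hx, e⟩ := h1
      exact ⟨_, ⟨x, hx, rfl⟩, congrArg Subtype.val e⟩

/-- **quotients of `D_π`-groups** -/
theorem dpi_quotient {G : Type u} [Group G] [Finite G] (hD : IsDPiGroup π G) (N : Subgroup G) [N.Normal] :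
    IsDPiGroup π (G ⧸ N) := by
  obtain ⟨H, hH⟩ := H164.isEPi_of_isDPi hD
  refine H569.PiHall.isDPiGroup_of_forall (H := H.map (QuotientGroup.mk' N)) ?_ fun K hK => ?_
  · intro p hp hd
    exact hH.1 p hp (hd.trans (Subgroup.card_map_dvd _ _))
  · obtain ⟨P, hP, hPK⟩ := exists_map_eq (QuotientGroup.mk' N) (K := K)
      (by rw [MonoidHom.range_eq_top.2 (QuotientGroup.mk'_surjective N)]; exact le_top) hK
    obtain ⟨g, hg⟩ := H164.isDPi_iff_le hD hH hP
    refine ⟨QuotientGroup.mk' N g, ?_⟩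
    rw [← hPK]
    rintro _ ⟨x, hx, rfl⟩
    obtain ⟨y, hy, e⟩ := hg hx
    refine ⟨y, hy, ?_⟩
    rw [← e, ← map_inv, ← map_mul, ← map_mul]
    congr 1
    change y = g⁻¹ * (g * y * g⁻¹) * g
    group

/-- The Baer–Suzuki conclusion modulo a normal `p`-subgroup contained in the normal closure. -/
theorem of_pgroup_le {G : Type u} [Group G] [Finite G] {x : G} (hx : Pairs π x) {p : ℕ} [hpf : Fact p.Prime]
    {V : Subgroup G} [hVn : V.Normal] (hVp : IsPGroup p V) (hVN : V ≤ normalClosure ({x} : Set G))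
    (hbar : IsPiSubgroup π ((normalClosure ({x} : Set G)).map (QuotientGroup.mk' V))) :
    IsPiSubgroup π (normalClosure ({x} : Set G)) := by
  have hp : p.Prime := hpf.out
  set N := normalClosure ({x} : Set G) with hN
  have hNn : N.Normal := normalClosure_normal
  have hxN : x ∈ N := subset_normalClosure rfl
  have hcV : Nat.card (V.subgroupOf N) = Nat.card V := Nat.card_congr (subgroupOfEquivOfLe hVN).toEquiv
  have hidx : (V.subgroupOf N).index = Nat.card (N.map (QuotientGroup.mk' V)) := by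
    have h1 : ((QuotientGroup.mk' V).subgroupMap N).ker = V.subgroupOf N := by
      ext y
      rw [MonoidHom.mem_ker, mem_subgroupOf, ← QuotientGroup.eq_one_iff (N := V) (y : G)]
      exact ⟨fun h => congrArg Subtype.val h, fun h => Subtype.ext h⟩
    rw [← h1, Subgroup.index_ker, MonoidHom.range_eq_top.2 ((QuotientGroup.mk' V).subgroupMap_surjective N),
      Subgroup.card_top]
  have hcN : Nat.card N = Nat.card V * Nat.card (N.map (QuotientGroup.mk' V)) := by
    rw [← hidx, ← hcV, Subgroup.card_mul_index]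
  by_cases hpπ : p ∈ π
  · intro q hq hd
    rw [hcN] at hd
    rcases (hq.dvd_mul).1 hd with h1 | h1
    · obtain ⟨k, hk⟩ := IsPGroup.iff_card.1 hVp
      rw [hk] at h1
      rw [(Nat.prime_dvd_prime_iff_eq hq hp).1 (hq.dvd_of_dvd_pow h1)]
      exact hpπ
    · exact hbar q hq h1
  -- `p ∉ π`
  by_cases hV1 : V = ⊥
  · intro q hq hd
    have hVc : Nat.card V = 1 := by rw [hV1, card_bot]
    rw [hcN, hVc, one_mul] at hd
    exact hbar q hq hd
  exfalso
  have hpd : ∀ S : Subgroup G, IsPiSubgroup π S → ¬ p ∣ Nat.card S := fun S hS hd => hpπ (hS p hp hd)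
  have hcomm : ∀ v ∈ V, x * v = v * x := by
    intro v hv
    have h1 : x * (v * x⁻¹ * v⁻¹) ∈ closure ({1 * x * 1⁻¹, v * x * v⁻¹} : Set G) := by
      refine mul_mem (subset_closure (by simp)) ?_
      have h2 := inv_mem (subset_closure (show v * x * v⁻¹ ∈ ({1 * x * 1⁻¹, v * x * v⁻¹} : Set G) by simp))
      convert h2 using 1
      group
    have h2 : x * (v * x⁻¹ * v⁻¹) ∈ V := by
      have h3 := mul_mem (hVn.conj_mem v hv x) (inv_mem hv)
      convert h3 using 1
      group
    have h3 : orderOf (x * (v * x⁻¹ * v⁻¹)) ∣ Nat.card ↥(closure ({1 * x * 1⁻¹, v * x * v⁻¹} : Set G)) :=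
      Subgroup.orderOf_dvd_natCard _ h1
    have h4 : orderOf (x * (v * x⁻¹ * v⁻¹)) = 1 := by
      obtain ⟨k, hk⟩ := (hVp ⟨_, h2⟩)
      have h5 : (x * (v * x⁻¹ * v⁻¹)) ^ p ^ k = 1 := congrArg Subtype.val hk
      refine Nat.eq_one_of_dvd_coprimes (Nat.Coprime.pow_left k ((Nat.Prime.coprime_iff_not_dvd hp).2
        (hpd _ (hx 1 v)))) (orderOf_dvd_of_pow_eq_one h5) h3
    rw [orderOf_eq_one_iff] at h4
    calc x * v = (x * (v * x⁻¹ * v⁻¹)) * (v * x) := by group
      _ = v * x := by rw [h4, one_mul]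
  have hcen : N ≤ centralizer (V : Set G) := by
    have : (centralizer (V : Set G)).Normal := inferInstance
    refine normalClosure_le_normal ?_
    rw [Set.singleton_subset_iff]
    exact mem_centralizer_iff.2 fun v hv => (hcomm v hv).symm
  have hcop : Nat.Coprime (Nat.card (V.subgroupOf N)) (V.subgroupOf N).index := by
    rw [hidx, hcV]
    obtain ⟨k, hk⟩ := IsPGroup.iff_card.1 hVp
    rw [hk]
    exact Nat.Coprime.pow_left k ((Nat.Prime.coprime_iff_not_dvd hp).2 fun hd => hpπ (hbar p hp hd))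
  obtain ⟨H, hH⟩ := Subgroup.exists_right_complement'_of_coprime hcop
  have hkey : ∀ y : N, (∃ g : G, (y : G) = g * x * g⁻¹) → y ∈ H := by
    rintro y ⟨g, hg⟩
    obtain ⟨⟨v, h⟩, hvh⟩ := hH.2 y
    have hvh' : (v : N) * h = y := hvh
    have hc : Commute (v : N) (h : N) := by
      apply Subtype.ext
      exact (mem_centralizer_iff.1 (hcen (h : N).2) _ (mem_subgroupOf.1 v.2))
    have h1 : (h : N) ^ Nat.card H = 1 := by
      have := pow_card_eq_one' (x := h)
      exact congrArg Subtype.val this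
    have h2 : (v : N) ^ (Nat.card H * orderOf y) = 1 := by
      have h3 : y ^ (Nat.card H * orderOf y) = 1 := by rw [mul_comm, pow_mul, pow_orderOf_eq_one, one_pow]
      rw [← hvh', hc.mul_pow, pow_mul (h : N), h1, one_pow, mul_one] at h3
      rwa [hvh'] at h3
    have h3 : ¬ p ∣ Nat.card H * orderOf y := by
      intro hd
      rcases (hp.dvd_mul).1 hd with h4 | h4
      · rw [← hH.symm.index_eq_card, hidx] at h4
        exact hpπ (hbar p hp h4)
      · refine hpd _ (hx g g) (h4.trans ?_)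
        rw [← Subgroup.orderOf_coe, hg]
        exact Subgroup.orderOf_dvd_natCard _ (subset_closure (by simp))
    obtain ⟨k, hk⟩ := hVp ⟨((v : N) : G), mem_subgroupOf.1 v.2⟩
    have h4 : (v : N) ^ p ^ k = 1 := Subtype.ext (congrArg (Subtype.val : V → G) hk)
    have h5 : orderOf (v : N) = 1 := Nat.eq_one_of_dvd_coprimes (Nat.Coprime.pow_left k
      ((Nat.Prime.coprime_iff_not_dvd hp).2 h3)) (orderOf_dvd_of_pow_eq_one h4) (orderOf_dvd_of_pow_eq_one h2)
    rw [orderOf_eq_one_iff] at h5
    rw [← hvh', h5, one_mul]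
    exact h.2
  have hNH : N ≤ H.map N.subtype := by
    show closure (Group.conjugatesOfSet ({x} : Set G)) ≤ _
    rw [closure_le]
    intro y hy
    obtain ⟨a, ha, hay⟩ := Group.mem_conjugatesOfSet_iff.1 hy
    rw [Set.mem_singleton_iff] at ha
    rw [ha] at hay
    obtain ⟨g, hg⟩ := isConj_iff.1 hay
    exact ⟨⟨y, Subgroup.conjugatesOfSet_subset_normalClosure hy⟩, hkey _ ⟨g, hg.symm⟩, rfl⟩
  apply hV1
  rw [eq_bot_iff]
  intro v hv
  obtain ⟨h, hh, e⟩ := hNH (hVN hv)
  have h1 : h ∈ V.subgroupOf N ⊓ H := ⟨mem_subgroupOf.2 (by rw [← e] at hv; exact hv), hh⟩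
  rw [hH.disjoint.eq_bot, mem_bot] at h1
  rw [mem_bot, ← e, h1]
  rfl

/-- a subgroup with a `π`-image modulo a `π`-group -/
theorem pi_of_map {G : Type u} [Group G] [Finite G] {N V : Subgroup G} [V.Normal]
    (hV : IsPiSubgroup π (V ⊓ N)) (h : IsPiSubgroup π (N.map (QuotientGroup.mk' V))) : IsPiSubgroup π N := by
  have hidx : (V.subgroupOf N).index = Nat.card (N.map (QuotientGroup.mk' V)) := by
    have h1 : ((QuotientGroup.mk' V).subgroupMap N).ker = V.subgroupOf N := by
      ext y
      rw [MonoidHom.mem_ker, mem_subgroupOf, ← QuotientGroup.eq_one_iff (N := V) (y : G)]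
      exact ⟨fun h => congrArg Subtype.val h, fun h => Subtype.ext h⟩
    rw [← h1, Subgroup.index_ker, MonoidHom.range_eq_top.2 ((QuotientGroup.mk' V).subgroupMap_surjective N),
      Subgroup.card_top]
  have hcV : Nat.card (V.subgroupOf N) = Nat.card ↥(V ⊓ N) := by
    rw [← Subgroup.inf_subgroupOf_right]
    exact Nat.card_congr (subgroupOfEquivOfLe inf_le_right).toEquiv
  intro q hq hd
  rw [← Subgroup.card_mul_index (V.subgroupOf N), hidx, hcV] at hd
  rcases (hq.dvd_mul).1 hd with h1 | h1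
  · exact hV q hq h1
  · exact h q hq h1

/-- the intersection of a Hall `π`-subgroup with a subnormal subgroup -/
theorem hall_of_subnormal {G : Type u} [Group G] [Finite G] {H : Subgroup G} (hH : IsPiHall π H) {L : Subgroup G}
    (hL : L.IsSubnormal) : IsPiHall π (H.subgroupOf L) := by
  induction hL with
  | top =>
    have h1 : Nat.card (H.subgroupOf ⊤) = Nat.card H := Nat.card_congr (subgroupOfEquivOfLe le_top).toEquiv
    refine ⟨fun p hp hd => hH.1 p hp (by rwa [← h1]), fun p hp hpπ hd => hH.2 p hp hpπ ?_⟩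
    have h2 : (H.subgroupOf ⊤).index = H.index := Subgroup.relIndex_top_right H
    rwa [← h2]
  | step L K hle _ hN ih =>
    have h1 := (S4309.result π (H.subgroupOf K) (L.subgroupOf K) ih).1
    -- `(H ∩ K) ∩ L` inside `L`
    have e : ↥(L.subgroupOf K) ≃* L := subgroupOfEquivOfLe hle
    have h2 : ((H.subgroupOf K ⊓ L.subgroupOf K).subgroupOf (L.subgroupOf K)).map
        (subgroupOfEquivOfLe hle).toMonoidHom = H.subgroupOf L := by
      ext y
      constructor
      · rintro ⟨z, hz, rfl⟩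
        exact hz.1
      · intro hy
        refine ⟨⟨⟨y, hle y.2⟩, y.2⟩, ⟨hy, y.2⟩, rfl⟩
    have hinj : Function.Injective (subgroupOfEquivOfLe hle).toMonoidHom := (subgroupOfEquivOfLe hle).injective
    have hcard : Nat.card (H.subgroupOf L) =
        Nat.card ((H.subgroupOf K ⊓ L.subgroupOf K).subgroupOf (L.subgroupOf K)) := by
      rw [← h2, Subgroup.card_map_of_injective hinj]
    have hidx : (H.subgroupOf L).index =
        ((H.subgroupOf K ⊓ L.subgroupOf K).subgroupOf (L.subgroupOf K)).index := by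
      have h3 := (H.subgroupOf L).card_mul_index
      have h4 := ((H.subgroupOf K ⊓ L.subgroupOf K).subgroupOf (L.subgroupOf K)).card_mul_index
      rw [Nat.card_congr (subgroupOfEquivOfLe hle).toEquiv, ← h3, ← hcard] at h4
      exact (Nat.eq_of_mul_eq_mul_left Nat.card_pos h4).symm
    exact ⟨fun p hp hd => h1.1 p hp (by rwa [← hcard]), fun p hp hpπ hd => h1.2 p hp hpπ (by rwa [← hidx])⟩

end Cfsg.Agent.H518.DPi.Red
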